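import Mathlib
import Cfsg.Prelude.Def_OddOrderLocal

/-!
Team project S1356 (Bender–Glauberman Lemma 15.1(b),(d): `M'' ≤ F(M) = C_M(M_F) M_F`, and
`F(M) ≤ M'` when `κ(M) ≠ ∅`): exact statements of the generic packages (helper9).
-/

set_option autoImplicit false

namespace Cfsg.Agent.Lib.Helper9.BG1356

open Cfsg

universe u

/-- PK-A: `F(M) ≤ C_M(M_F) M_F` (a nilpotent group is the product of a normal Hall subgroup and
its centralizer). -/
def PkgA : Prop :=
  ∀ {G : Type u} [Group G] [Finite G] (M : Subgroup G),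
    fittingOf M ≤ (M ⊓ Subgroup.centralizer (fittingHallOf M : Set G)) ⊔ fittingHallOf M

/-- PK-N: a subgroup `C ≤ C_M(M_F)` whose image in `M / M_F` is nilpotent is nilpotent
(the kernel `C ∩ M_F` is central in `C`). -/
def PkgN : Prop :=
  ∀ {G : Type u} [Group G] [Finite G] (M C : Subgroup G), C ≤ M →
    C ≤ Subgroup.centralizer (fittingHallOf M : Set G) →
    Group.IsNilpotent ↥((C.subgroupOf M).map (QuotientGroup.mk' (fittingHall ↥M))) →
    Group.IsNilpotent ↥C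

/-- PK-C: Schur–Zassenhaus with a Sylow subgroup inside: `Q ≤ S ≤ M`, `Q` and `S` normal in `M`,
`|Q|` coprime to `|M : Q|`, `K` a Sylow `p`-subgroup of `M` with `p ∤ |Q|`.  Then `Q` has a
complement `D` in `S` normalized by `K`. -/
def PkgC : Prop :=
  ∀ {G : Type u} [Group G] [Finite G] (M S Q K : Subgroup G) (p : ℕ), p.Prime →
    Q ≤ S → S ≤ M → M ≤ Subgroup.normalizer (Q : Set G) → M ≤ Subgroup.normalizer (S : Set G) →
    (Nat.card Q).Coprime (Q.relIndex M) →
    K ≤ M → IsPGroup p K → ¬ p ∣ K.relIndex M → ¬ p ∣ Nat.card Q →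
    ∃ D : Subgroup G, IsComplIn Q D S ∧ K ≤ Subgroup.normalizer (D : Set G)

/-- PK-B: the Frobenius group `D ⋊ R` (`|R| = p` prime, `C_D(R) = 1`) acts on the `q`-group `Q`
with `Q₀ = C_Q(D)`, `Q / Q₀` abelian of order `q ^ p` and no `QDR`-invariant subgroup strictly
between `Q₀` and `Q`.  Then `D'` centralizes `Q` (apply the landed S1446 in `QDR / Q₀`, then a
coprime-action argument). -/
def PkgB : Prop :=
  ∀ {G : Type u} [Group G] [Finite G] (Q D R : Subgroup G) (p q : ℕ),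
    Odd (Nat.card G) → p.Prime → q.Prime → p ≠ q →
    Group.IsSolvable ↥(Q ⊔ D ⊔ R) →
    IsPGroup q Q →
    D ≤ Subgroup.normalizer (Q : Set G) → R ≤ Subgroup.normalizer (Q : Set G) →
    R ≤ Subgroup.normalizer (D : Set G) →
    Nat.card R = p → ¬ q ∣ Nat.card D → ¬ p ∣ Nat.card D →
    D ⊓ Subgroup.centralizer (R : Set G) = ⊥ →
    Q ⊓ Subgroup.centralizer (D : Set G) < Q →
    Nat.card Q = Nat.card ↥(Q ⊓ Subgroup.centralizer (D : Set G)) * q ^ p →
    (∀ a ∈ Q, ∀ b ∈ Q, a * b * a⁻¹ * b⁻¹ ∈ Q ⊓ Subgroup.centralizer (D : Set G)) →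
    (∀ N : Subgroup G, Q ⊓ Subgroup.centralizer (D : Set G) < N → N < Q →
      ¬ (Q ⊔ D ⊔ R ≤ Subgroup.normalizer (N : Set G))) →
    ⁅D, D⁆ ≤ Subgroup.centralizer (Q : Set G)

end Cfsg.Agent.Lib.Helper9.BG1356
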